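import Cfsg.Agent.Transfer.Abelian

/-!
Transfer into abelian Hall subgroups and abelian quotients; fixed points of coprime actions
on normalized abelian subgroups.
-/

set_option autoImplicit false

namespace Cfsg.Agent.Transfer

open Subgroup
open scoped commutatorElement IsMulCommutative

variable {G : Type*} [Group G] [Finite G]

/-- An element of an abelian group of order prime to `n` with trivial `n`-th power is trivial. -/
theorem eq_one_of_pow_coprime {M : Type*} [Group M] [Finite M] {n : ℕ}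
    (h : Nat.Coprime (Nat.card M) n) {x : M} (hx : x ^ n = 1) : x = 1 :=
  orderOf_eq_one_iff.mp (Nat.eq_one_of_dvd_coprimes h (orderOf_dvd_natCard x)
    (orderOf_dvd_of_pow_eq_one hx))

/-- A central element of an abelian subgroup `H` that lies in the derived subgroup is killed by
the index of `H`. -/
theorem pow_index_eq_one (H : Subgroup G) [IsMulCommutative H] {z : G} (hz : z ∈ H)
    (hzc : z ∈ center G) (hzG : z ∈ commutator G) : z ^ H.index = 1 := by
  have key : ∀ (k : ℕ) (g₀ : G), g₀⁻¹ * z ^ k * g₀ ∈ H → g₀⁻¹ * z ^ k * g₀ = z ^ k :=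
    fun k g₀ _ => by
      rw [mul_assoc, ← mem_center_iff.mp ((center G).pow_mem hzc k) g₀, inv_mul_cancel_left]
  have h1 := MonoidHom.transfer_eq_pow (MonoidHom.id H) z key
  have h2 : MonoidHom.transfer (MonoidHom.id H) z = 1 :=
    Abelianization.commutator_subset_ker _ hzG
  rw [h2] at h1
  exact (congrArg Subtype.val h1.symm :)

/-- An abelian Hall subgroup meets `G' ∩ Z(G)` trivially. -/
theorem inf_commutator_center_eq_bot (H : Subgroup G) [IsMulCommutative H]
    (hH : Nat.Coprime (Nat.card H) H.index) : H ⊓ commutator G ⊓ center G = ⊥ := by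
  rw [eq_bot_iff]
  rintro z ⟨⟨hz, hzG⟩, hzc⟩
  have := eq_one_of_pow_coprime hH (x := (⟨z, hz⟩ : H))
    (Subtype.ext (pow_index_eq_one H hz hzc hzG))
  exact mem_bot.mpr (congrArg Subtype.val this)

/-- The averaging map of an abelian normal subgroup of a group of coprime index. -/
theorem exists_average (A : Subgroup G) [A.Normal] [IsMulCommutative A]
    (hA : Nat.Coprime (Nat.card A) A.index) :
    ∃ f : A →* A, (∀ a, ((f a : A) : G) ∈ center G) ∧
      (∀ a : A, (a : G) ∈ center G → f a = a ^ A.index) ∧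
      (∀ a : A, a ^ A.index * (f a)⁻¹ ∈ (⁅A, (⊤ : Subgroup G)⁆).subgroupOf A) ∧
      (⁅A, (⊤ : Subgroup G)⁆).subgroupOf A ≤ f.ker := by
  classical
  haveI : Fintype (G ⧸ A) := Fintype.ofFinite _
  let conjA : G →* MulAut A := MulAut.conjNormal
  have hker : A ≤ conjA.ker := fun b hb => MonoidHom.mem_ker.mpr (MulEquiv.ext fun a =>
    Subtype.ext (by
      rw [MulAut.one_apply]
      change ((MulAut.conjNormal b a : A) : G) = a
      rw [MulAut.conjNormal_apply]
      have : (b : G) * a = a * b := congrArg Subtype.val (mul_comm' (⟨b, hb⟩ : A) a)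
      rw [this, mul_inv_cancel_right]))
  let ψ : G ⧸ A →* MulAut A := QuotientGroup.lift A conjA hker
  let f : A →* A := ∏ c : G ⧸ A, (ψ c).toMonoidHom
  have hf : ∀ a, f a = ∏ c : G ⧸ A, ψ c a := fun a => by simp [f]
  have hinv : ∀ (g : G) a, conjA g (f a) = f a := by
    intro g a
    rw [hf, map_prod]
    refine Fintype.prod_equiv (Equiv.mulLeft (g : G ⧸ A)) _ _ fun c => ?_
    change conjA g (ψ c a) = ψ ((g : G ⧸ A) * c) a
    rw [map_mul, MulAut.mul_apply]
    rfl
  refine ⟨f, fun a => mem_center_iff.mpr fun g => ?_, fun a ha => ?_, fun a => ?_, ?_⟩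
  · have h := congrArg (fun x : A => (x : G)) (hinv g a)
    simp only [conjA, MulAut.conjNormal_apply] at h
    exact mul_inv_eq_iff_eq_mul.mp h
  · rw [hf]
    have : ∀ c : G ⧸ A, ψ c a = a := by
      intro c
      induction c using QuotientGroup.induction_on with
      | _ g =>
        apply Subtype.ext
        change ((MulAut.conjNormal g a : A) : G) = a
        rw [MulAut.conjNormal_apply, mem_center_iff.mp ha g, mul_inv_cancel_right]
    simp [this, index_eq_card, Nat.card_eq_fintype_card]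
  · have e : a ^ A.index = ∏ _c : G ⧸ A, a := by
      simp [index_eq_card, Nat.card_eq_fintype_card]
    rw [e, hf, ← Finset.prod_inv_distrib, ← Finset.prod_mul_distrib]
    refine prod_mem fun c _ => ?_
    induction c using QuotientGroup.induction_on with
    | _ g =>
      change ((a * (ψ (g : G ⧸ A) a)⁻¹ : A) : G) ∈ ⁅A, (⊤ : Subgroup G)⁆
      change (a : G) * ((MulAut.conjNormal g a : A) : G)⁻¹ ∈ _
      rw [MulAut.conjNormal_apply, show (a : G) * (g * a * g⁻¹)⁻¹ = ⁅(a : G), g⁆ by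
        rw [commutatorElement_def]; group]
      exact commutator_mem_commutator a.2 (mem_top g)
  · intro a ha
    rw [MonoidHom.mem_ker]
    have hle : ⁅A, (⊤ : Subgroup G)⁆ ≤ f.ker.map A.subtype := by
      rw [commutator_le]
      intro x hx g _
      refine ⟨⟨x, hx⟩ * (conjA g ⟨x, hx⟩)⁻¹, ?_, ?_⟩
      · rw [SetLike.mem_coe, MonoidHom.mem_ker, map_mul, map_inv]
        have : f (conjA g ⟨x, hx⟩) = f ⟨x, hx⟩ := by
          rw [hf, hf]
          refine Fintype.prod_equiv (Equiv.mulRight (g : G ⧸ A)) _ _ fun c => ?_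
          change ψ c (conjA g ⟨x, hx⟩) = ψ (c * (g : G ⧸ A)) ⟨x, hx⟩
          rw [map_mul, MulAut.mul_apply]
          rfl
        rw [this, mul_inv_cancel]
      · change x * ((MulAut.conjNormal g ⟨x, hx⟩ : A) : G)⁻¹ = ⁅x, g⁆
        rw [MulAut.conjNormal_apply, commutatorElement_def]
        group
    obtain ⟨y, hy, e⟩ := hle ha
    have : y = a := Subtype.ext e
    subst this
    exact MonoidHom.mem_ker.mp hy

/-- `A = [A, G] × (Z(G) ∩ A)` and the first factor is `G' ∩ A`. -/
theorem normal_abelian_hall (A : Subgroup G) [A.Normal] [IsMulCommutative A]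
    (hA : Nat.Coprime (Nat.card A) A.index) :
    ⁅A, (⊤ : Subgroup G)⁆ = commutator G ⊓ A ∧
      (commutator G ⊓ A) ⊓ (center G ⊓ A) = ⊥ ∧
      (commutator G ⊓ A) ⊔ (center G ⊓ A) = A := by
  have hle : ⁅A, (⊤ : Subgroup G)⁆ ≤ commutator G ⊓ A :=
    le_inf (commutator_mono le_top le_rfl) (commutator_le_left A ⊤)
  have hbot : (commutator G ⊓ A) ⊓ (center G ⊓ A) = ⊥ := by
    rw [eq_bot_iff, ← inf_commutator_center_eq_bot A hA]
    exact le_inf (le_inf (inf_le_left.trans inf_le_right) (inf_le_left.trans inf_le_left))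
      (inf_le_right.trans inf_le_left)
  obtain ⟨f, hf1, hf2, hf3, -⟩ := exists_average A hA
  have hdec : ∀ a ∈ A, ∃ u ∈ ⁅A, (⊤ : Subgroup G)⁆, ∃ v ∈ center G ⊓ A, a = u * v := by
    intro a ha
    obtain ⟨m, hm⟩ := exists_pow_eq_self_of_coprime (x := (⟨a, ha⟩ : A)) (n := A.index)
      ((Nat.Coprime.coprime_dvd_left (orderOf_dvd_natCard _) hA).symm)
    set b : A := ⟨a, ha⟩
    refine ⟨(((b ^ A.index * (f b)⁻¹) ^ m : A) : G), ?_, (((f b) ^ m : A) : G), ?_, ?_⟩
    · exact mem_subgroupOf.mp (pow_mem (hf3 b) m)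
    · exact ⟨by rw [SubmonoidClass.coe_pow]; exact pow_mem (hf1 b) m, SetLike.coe_mem _⟩
    · rw [← Subgroup.coe_mul, ← mul_pow, inv_mul_cancel_right, hm]
  refine ⟨le_antisymm hle fun a ha => ?_, hbot,
    le_antisymm (sup_le inf_le_right inf_le_right) fun a ha => ?_⟩
  · obtain ⟨u, hu, v, hv, rfl⟩ := hdec a ha.2
    have hv' : v ∈ (commutator G ⊓ A) ⊓ (center G ⊓ A) := by
      refine ⟨⟨?_, hv.2⟩, hv⟩
      simpa using (commutator G).mul_mem ((commutator G).inv_mem (hle hu).1) ha.1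
    rw [hbot, mem_bot] at hv'
    rw [hv', mul_one]
    exact hu
  · obtain ⟨u, hu, v, hv, rfl⟩ := hdec a ha
    exact mul_mem_sup (hle hu) hv

/-- Transfer into an abelian quotient of a subgroup: elements with controlled powers. -/
theorem pow_index_mem (H K : Subgroup G) [(K.subgroupOf H).Normal]
    [IsMulCommutative (↥H ⧸ K.subgroupOf H)] (g : G) (hg : g ∈ H)
    (hctrl : ∀ (k : ℕ) (a : G), a * g ^ k * a⁻¹ ∈ H → (a * g ^ k * a⁻¹) * (g ^ k)⁻¹ ∈ K) :
    (MonoidHom.transfer (QuotientGroup.mk' (K.subgroupOf H))) g =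
      (((⟨g, hg⟩ : H) : ↥H ⧸ K.subgroupOf H)) ^ H.index := by
  haveI : Fintype (Quotient (MulAction.orbitRel (zpowers g) (G ⧸ H))) := Fintype.ofFinite _
  rw [index_eq_sum_minimalPeriod H g, ← Finset.prod_pow_eq_pow_sum,
    MonoidHom.transfer_eq_prod_quotient_orbitRel_zpowers_quot]
  refine Finset.prod_congr rfl fun q _ => ?_
  rw [← QuotientGroup.mk_pow, QuotientGroup.mk'_apply, eq_comm, QuotientGroup.eq]
  have key : ∀ (k : ℕ) (r : G) (hm : r⁻¹ * g ^ k * r ∈ H),
      ((⟨g, hg⟩ : H) ^ k)⁻¹ * (⟨r⁻¹ * g ^ k * r, hm⟩ : H) ∈ K.subgroupOf H := by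
    intro k r hmem
    have hgk : g ^ k ∈ H := pow_mem hg k
    have h1 := hctrl k r⁻¹ (by rwa [inv_inv])
    rw [inv_inv] at h1
    have hn := (normal_subgroupOf_iff_le_normalizer_inf (H := K) (K := H)).mp inferInstance
    rw [mem_subgroupOf]
    have h2 : (r⁻¹ * g ^ k * r) * (g ^ k)⁻¹ ∈ K ⊓ H := ⟨h1, H.mul_mem hmem (H.inv_mem hgk)⟩
    have h3 := (mem_normalizer_iff.mp (inv_mem (hn hgk)) _).mp h2
    change (g ^ k)⁻¹ * (r⁻¹ * g ^ k * r) ∈ K
    simpa [mul_assoc] using h3.1
  exact key _ _ _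

end Cfsg.Agent.Transfer
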