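import Cfsg.Agent.Transfer.Abelian
import Cfsg.Agent.Transfer.Hall

/-!
Decomposition of an abelian Sylow subgroup under its normalizer.
-/

set_option autoImplicit false

namespace Cfsg.Agent.Transfer

open Subgroup
open scoped commutatorElement

variable {G : Type*} [Group G] [Finite G] {p : ℕ} [hp : Fact p.Prime]

theorem comm_normalizer_eq (T : Sylow p G) (hT : IsMulCommutative T) :
    (T : Subgroup G) ⊓ pResidual p G = ⁅(T : Subgroup G), normalizer (T : Set G)⁆ := by
  refine le_antisymm ?_ ?_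
  · rw [inf_comm]
    refine (pResidual_inf_le_focal T).trans ?_
    rw [← Sylow.coe_coe]
    exact focal_le_of_control _ _ (control_of_abelian T hT)
  · rw [commutator_le]
    intro t ht n hn
    haveI : IsMulCommutative ↥(T : Subgroup G) := hT
    refine ⟨?_, ?_⟩
    · rw [commutatorElement_def, mul_assoc, mul_assoc]
      refine mul_mem ht ?_
      have := (mem_normalizer_iff.mp hn t⁻¹).mp (inv_mem ht)
      simpa [mul_assoc] using this
    obtain ⟨k, hk⟩ := exists_pow_coprime (p := p) n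
    -- `n = a * b` with `a` a `p`-element and `b` of order prime to `p`
    obtain ⟨a, b, ha, hb, hab, ⟨i, hai⟩, hbc⟩ : ∃ a b : G, a ∈ zpowers n ∧ b ∈ zpowers n ∧
        n = a * b ∧ (∃ i, a ^ p ^ i = 1) ∧ Nat.Coprime (orderOf b) p := by
      set m := orderOf (n ^ p ^ k) with hm
      have hco : Nat.Coprime (p ^ k) m := Nat.Coprime.pow_left k hk.symm
      have hg := Nat.gcd_eq_gcd_ab (p ^ k) m
      rw [hco.gcd_eq_one] at hg
      refine ⟨(n ^ m) ^ Nat.gcdB (p ^ k) m, (n ^ p ^ k) ^ Nat.gcdA (p ^ k) m,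
        zpow_mem (pow_mem (mem_zpowers n) m) _, zpow_mem (pow_mem (mem_zpowers n) _) _, ?_,
        ⟨k, ?_⟩, ?_⟩
      · rw [← zpow_natCast n m, ← zpow_natCast n (p ^ k), ← zpow_mul, ← zpow_mul, ← zpow_add,
          add_comm, ← hg]
        simp
      · have h1 : (n ^ m) ^ p ^ k = 1 := by
          rw [← pow_mul, mul_comm, pow_mul, hm, pow_orderOf_eq_one]
        rw [← zpow_natCast, ← zpow_mul, mul_comm, zpow_mul, zpow_natCast, h1, one_zpow]
      · refine Nat.Coprime.coprime_dvd_left (orderOf_dvd_of_pow_eq_one ?_) hk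
        rw [← zpow_natCast, ← zpow_mul, mul_comm, zpow_mul, zpow_natCast, hm, pow_orderOf_eq_one,
          one_zpow]
    have haN : a ∈ normalizer (T : Set G) := (zpowers_le.mpr hn) ha
    have haT : a ∈ (T : Subgroup G) := by
      have hz : IsPGroup p (zpowers a) := by
        obtain ⟨j, -, hj⟩ := (Nat.dvd_prime_pow hp.out).mp (orderOf_dvd_of_pow_eq_one hai)
        exact IsPGroup.of_card (by rw [Nat.card_zpowers, hj])
      have h1 := hz.inf_normalizer_sylow T
      rw [inf_eq_left.mpr (zpowers_le.mpr haN)] at h1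
      exact inf_eq_left.mp h1.symm (mem_zpowers a)
    have hta : t * a = a * t := congrArg Subtype.val
      (mul_comm' (⟨t, ht⟩ : ↥(T : Subgroup G)) ⟨a, haT⟩)
    have e : ⁅t, n⁆ = a * ((t * b * t⁻¹) * b⁻¹) * a⁻¹ := by
      rw [commutatorElement_def, hab]
      calc t * (a * b) * t⁻¹ * (a * b)⁻¹ = (t * a) * b * t⁻¹ * (a * b)⁻¹ := by group
        _ = a * ((t * b * t⁻¹) * b⁻¹) * a⁻¹ := by rw [hta]; group
    have hbK : b ∈ pResidual p G := subset_closure hbc
    rw [e]
    exact Normal.conj_mem inferInstance _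
      (mul_mem (Normal.conj_mem inferInstance _ hbK t) (inv_mem hbK)) a

/-- An abelian Sylow subgroup is `⁅P, N(P)⁆ × (P ⊓ C(N(P)))`. -/
theorem abelian_sylow_decomp (P : Sylow p G) (hP : IsMulCommutative P) :
    ⁅(P : Subgroup G), normalizer (P : Set G)⁆ ⊓
        ((P : Subgroup G) ⊓ centralizer (normalizer (P : Set G) : Set G)) = ⊥ ∧
      ⁅(P : Subgroup G), normalizer (P : Set G)⁆ ⊔
        ((P : Subgroup G) ⊓ centralizer (normalizer (P : Set G) : Set G)) = P := by
  haveI : IsMulCommutative ↥(P : Subgroup G) := hP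
  set N := normalizer (P : Set G) with hN
  have hPN : (P : Subgroup G) ≤ N := le_normalizer
  set A := (P : Subgroup G).subgroupOf N with hA
  haveI : A.Normal := normal_subgroupOf_iff_le_normalizer hPN |>.mpr le_rfl
  haveI : IsMulCommutative A := subgroupOf_isMulCommutative _ _
  have hcop : Nat.Coprime (Nat.card A) A.index := by
    rw [Nat.card_congr (subgroupOfEquivOfLe hPN).toEquiv]
    exact P.card_coprime_index.coprime_dvd_right (relIndex_dvd_index_of_le hPN)
  obtain ⟨h1, h2, h3⟩ := normal_abelian_hall A hcop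
  have hmapA : A.map N.subtype = (P : Subgroup G) := map_subgroupOf_eq_of_le hPN
  have hmapC : (center ↥N ⊓ A).map N.subtype = (P : Subgroup G) ⊓ centralizer (N : Set G) := by
    ext x
    constructor
    · rintro ⟨u, ⟨hu, huA⟩, rfl⟩
      exact ⟨huA, mem_centralizer_iff.mpr fun m hm =>
        congrArg Subtype.val (mem_center_iff.mp hu ⟨m, hm⟩)⟩
    · rintro ⟨hx, hxc⟩
      exact ⟨⟨x, hPN hx⟩, ⟨mem_center_iff.mpr fun m => Subtype.ext
        (mem_centralizer_iff.mp hxc m m.2), hx⟩, rfl⟩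
  have hmap1 : (commutator ↥N ⊓ A).map N.subtype = ⁅(P : Subgroup G), N⁆ := by
    rw [← h1, map_commutator, hmapA, ← MonoidHom.range_eq_map, range_subtype]
  refine ⟨?_, ?_⟩
  · rw [← hmap1, ← hmapC, ← map_inf _ _ _ N.subtype_injective, h2, Subgroup.map_bot]
  · rw [← hmap1, ← hmapC, ← Subgroup.map_sup, h3, hmapA]

end Cfsg.Agent.Transfer
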