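import Cfsg.Agent.Transfer.Hall
import Cfsg.Agent.Transfer.OmegaFour
import Cfsg.Agent.Solv.NilpotentHall
import Cfsg.Agent.Solv.Schmidt

/-!
Normal complements of Hall subgroups and Grün-type fusion control.
-/

set_option autoImplicit false

namespace Cfsg.Agent.Transfer

open Subgroup
open Pointwise
open scoped IsMulCommutative

variable {G : Type*} [Group G] [Finite G]

/-- A Hall subgroup central in its normalizer has a normal complement. -/
theorem hall_burnside (H : Subgroup G) (hHall : Nat.Coprime (Nat.card H) H.index)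
    (h : normalizer (H : Set G) ≤ centralizer (H : Set G)) :
    ∃ N : Subgroup G, N.Normal ∧ N.IsComplement' H := by
  have hcomm : ∀ a ∈ H, ∀ b ∈ H, a * b = b * a := fun a ha b hb =>
    mem_centralizer_iff.mp (h (le_normalizer hb)) a ha
  haveI hc : IsMulCommutative H := ⟨⟨fun a b => Subtype.ext (hcomm a a.2 b b.2)⟩⟩
  have hnil : Group.IsNilpotent H := inferInstance
  have key : ∀ (y : G) (g : G), y ∈ H → g⁻¹ * y * g ∈ H → g⁻¹ * y * g = y := by
    intro y g hy hgy
    set C := centralizer ({y} : Set G) with hC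
    have hHC : H ≤ C := fun a ha => mem_centralizer_singleton_iff.mpr (hcomm a ha y hy)
    set H' := MulAut.conj g • H with hH'
    have hH'C : H' ≤ C := by
      rintro _ ⟨b, hb, rfl⟩
      refine mem_centralizer_singleton_iff.mpr ?_
      have h1 : b * (g⁻¹ * y * g) = g⁻¹ * y * g * b := hcomm b hb _ hgy
      change g * b * g⁻¹ * y = y * (g * b * g⁻¹)
      calc g * b * g⁻¹ * y = g * (b * (g⁻¹ * y * g)) * g⁻¹ := by group
        _ = y * (g * b * g⁻¹) := by rw [h1]; group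
    have hHall' : (Nat.card (H.subgroupOf C)).Coprime (H.subgroupOf C).index := by
      rw [Nat.card_congr (subgroupOfEquivOfLe hHC).toEquiv]
      exact hHall.coprime_dvd_right (relIndex_dvd_index_of_le hHC)
    have hnil' : Group.IsNilpotent (H.subgroupOf C) :=
      Group.nilpotent_of_mulEquiv (subgroupOfEquivOfLe hHC).symm
    obtain ⟨⟨c, hc'⟩, hcx⟩ := Cfsg.Agent.Solv.le_conj_of_nilpotent_hall hnil' hHall'
      (H'.subgroupOf C) (fun p _ hp => by
        rw [Nat.card_congr (subgroupOfEquivOfLe hH'C).toEquiv, hH',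
          Cfsg.Agent.Solv.card_conj'] at hp
        rwa [Nat.card_congr (subgroupOfEquivOfLe hHC).toEquiv])
    have hin : ∀ b ∈ H, c⁻¹ * g * b * (c⁻¹ * g)⁻¹ ∈ H := by
      intro b hb
      have hbH' : g * b * g⁻¹ ∈ H' := ⟨b, hb, rfl⟩
      obtain ⟨⟨u, huC⟩, hu, e⟩ := hcx (show (⟨g * b * g⁻¹, hH'C hbH'⟩ : C) ∈ H'.subgroupOf C from hbH')
      have e' : c * u * c⁻¹ = g * b * g⁻¹ := congrArg Subtype.val e
      have : c⁻¹ * g * b * (c⁻¹ * g)⁻¹ = u := by
        calc c⁻¹ * g * b * (c⁻¹ * g)⁻¹ = c⁻¹ * (g * b * g⁻¹) * c := by group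
          _ = u := by rw [← e']; group
      rw [this]; exact hu
    have hn : c⁻¹ * g ∈ normalizer (H : Set G) := by
      refine mem_normalizer_iff.mpr fun b => ⟨hin b, fun hb => ?_⟩
      have he : H.map (MulAut.conj (c⁻¹ * g)).toMonoidHom = H := by
        refine eq_of_le_of_card_ge (by rintro _ ⟨d, hd, rfl⟩; exact hin d hd) ?_
        rw [card_map_of_injective (MulEquiv.injective _)]
      have hb' : c⁻¹ * g * b * (c⁻¹ * g)⁻¹ ∈ H.map (MulAut.conj (c⁻¹ * g)).toMonoidHom := by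
        rw [he]; exact hb
      obtain ⟨d, hd, e⟩ := hb'
      have : d = b := (MulAut.conj (c⁻¹ * g)).injective e
      exact this ▸ hd
    have h2 := mem_centralizer_iff.mp (h hn) y hy
    have h3 : c * y = y * c := mem_centralizer_singleton_iff.mp hc'
    calc g⁻¹ * y * g = g⁻¹ * c * (c⁻¹ * y * c) * c⁻¹ * g := by group
      _ = (c⁻¹ * g)⁻¹ * y * (c⁻¹ * g) := by rw [mul_assoc c⁻¹ y c, ← h3]; group
      _ = y := by rw [mul_assoc, h2, inv_mul_cancel_left]
  set f := MonoidHom.transfer (MonoidHom.id H) with hf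
  have hpow : ∀ z : ↥H, f z = z ^ H.index := by
    intro z
    have := MonoidHom.transfer_eq_pow (MonoidHom.id H) (z : G) (fun k g₀ hk => by
      exact key _ g₀ (H.pow_mem z.2 k) hk)
    rw [hf, this]
    exact Subtype.ext rfl
  have hbij := (powCoprime hHall).bijective
  refine ⟨f.ker, inferInstance, isComplement'_of_disjoint_and_mul_eq_univ ?_ ?_⟩
  · rw [disjoint_iff, eq_bot_iff]
    rintro z ⟨hz, hzH⟩
    have h1 : (⟨z, hzH⟩ : ↥H) ^ H.index = 1 := by rw [← hpow]; exact MonoidHom.mem_ker.mp hz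
    exact mem_bot.mpr (congrArg Subtype.val (eq_one_of_pow_coprime hHall h1))
  · rw [Set.eq_univ_iff_forall]
    intro g
    obtain ⟨z, hz⟩ := hbij.2 (f g)
    refine ⟨g * (z : G)⁻¹, ?_, z, z.2, inv_mul_cancel_right _ _⟩
    rw [SetLike.mem_coe, MonoidHom.mem_ker, map_mul, map_inv, hpow, mul_inv_eq_one]
    exact hz.symm

/-- A nilpotent Hall subgroup controlling its fusion has a normal complement. -/
theorem hall_nilpotent_complement (H : Subgroup G) (hH : Group.IsNilpotent H)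
    (hHall : Nat.Coprime (Nat.card H) H.index)
    (hf : ∀ x ∈ H, ∀ y ∈ H, (∃ g : G, g * x * g⁻¹ = y) → ∃ h ∈ H, h * x * h⁻¹ = y) :
    ∃ N : Subgroup G, N.Normal ∧ N.IsComplement' H := by
  classical
  have hN : ∀ p : {p // p ∈ (Nat.card H).primeFactors}, ∃ K : Subgroup G, K.Normal ∧
      ¬ (p : ℕ) ∣ Nat.card K ∧ ∃ n, K.index = (p : ℕ) ^ n := by
    rintro ⟨p, hpH⟩
    haveI : Fact p.Prime := ⟨Nat.prime_of_mem_primeFactors hpH⟩
    obtain ⟨P, hP⟩ := Cfsg.Agent.Solv.exists_sylow_in_hall hHall (Nat.dvd_of_mem_primeFactors hpH)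
    refine hasNPC_iff.mp (hasNPC_of_small_control P fun x hx _ g hg => ?_)
    obtain ⟨h, hh, he⟩ := hf x (hP hx) _ (hP hg) ⟨g, rfl⟩
    obtain ⟨a, b, ha, hb, hab, ⟨i, hai⟩, hbc⟩ : ∃ a b : G, a ∈ zpowers h ∧ b ∈ zpowers h ∧
        h = a * b ∧ (∃ i, a ^ p ^ i = 1) ∧ Nat.Coprime (orderOf b) p := by
      obtain ⟨k, hk⟩ := exists_pow_coprime (p := p) h
      set m := orderOf (h ^ p ^ k) with hm
      have hco : Nat.Coprime (p ^ k) m := Nat.Coprime.pow_left k hk.symm
      have hg' := Nat.gcd_eq_gcd_ab (p ^ k) m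
      rw [hco.gcd_eq_one] at hg'
      refine ⟨(h ^ m) ^ Nat.gcdB (p ^ k) m, (h ^ p ^ k) ^ Nat.gcdA (p ^ k) m,
        zpow_mem (pow_mem (mem_zpowers h) m) _, zpow_mem (pow_mem (mem_zpowers h) _) _, ?_,
        ⟨k, ?_⟩, ?_⟩
      · rw [← zpow_natCast h m, ← zpow_natCast h (p ^ k), ← zpow_mul, ← zpow_mul, ← zpow_add,
          add_comm, ← hg']
        simp
      · have h1 : (h ^ m) ^ p ^ k = 1 := by
          rw [← pow_mul, mul_comm, pow_mul, hm, pow_orderOf_eq_one]
        rw [← zpow_natCast, ← zpow_mul, mul_comm, zpow_mul, zpow_natCast, h1, one_zpow]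
      · refine Nat.Coprime.coprime_dvd_left (orderOf_dvd_of_pow_eq_one ?_) hk
        rw [← zpow_natCast, ← zpow_mul, mul_comm, zpow_mul, zpow_natCast, hm, pow_orderOf_eq_one,
          one_zpow]
    have haH : a ∈ H := (zpowers_le.mpr hh) ha
    have hbH : b ∈ H := (zpowers_le.mpr hh) hb
    have haP : a ∈ (P : Subgroup G) := by
      haveI := hH
      haveI := ((P.subtype hP).unique_of_normal inferInstance)
      obtain ⟨j, -, hj⟩ :=
        (Nat.dvd_prime_pow (Fact.out : p.Prime)).mp (orderOf_dvd_of_pow_eq_one hai)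
      have hz : IsPGroup p (zpowers (⟨a, haH⟩ : H)) :=
        IsPGroup.of_card (by rw [Nat.card_zpowers, Subgroup.orderOf_mk, hj])
      obtain ⟨R, hR⟩ := hz.exists_le_sylow
      rw [Subsingleton.elim R (P.subtype hP)] at hR
      exact hR (mem_zpowers _)
    have hbx : b * x = x * b := by
      obtain ⟨j, hj⟩ := IsPGroup.iff_orderOf.mp P.isPGroup' ⟨x, hx⟩
      rw [← orderOf_coe] at hj
      exact Cfsg.Agent.Solv.commute_of_coprime_mem hH hbH (hP hx) (hj ▸ hbc.pow_right j)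
    refine ⟨a, haP, ?_⟩
    rw [← he, hab]
    calc a * b * x * (a * b)⁻¹ = a * (b * x) * b⁻¹ * a⁻¹ := by group
      _ = a * x * a⁻¹ := by rw [hbx]; group
  choose K hKn hKc e hKi using hN
  haveI : ∀ p, (K p).Normal := hKn
  set N := ⨅ p, K p with hNdef
  haveI hNn : N.Normal := normal_iInf_normal hKn
  have hprimes : ∀ q : ℕ, q.Prime → q ∣ N.index → q ∣ Nat.card H := by
    intro q hq hd
    haveI := Fintype.ofFinite {p // p ∈ (Nat.card H).primeFactors}
    let φ : G →* ((p : {p // p ∈ (Nat.card H).primeFactors}) → G ⧸ K p) :=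
      Pi.monoidHom fun p => QuotientGroup.mk' (K p)
    have hker : φ.ker = N := by
      ext x
      simp only [MonoidHom.mem_ker, funext_iff, hNdef, mem_iInf]
      exact forall_congr' fun p => QuotientGroup.eq_one_iff x
    have hdvd : N.index ∣ ∏ p : {p // p ∈ (Nat.card H).primeFactors}, (K p).index := by
      rw [← hker, index_ker]
      refine (card_subgroup_dvd_card φ.range).trans (dvd_of_eq ?_)
      rw [Nat.card_pi]
      exact Finset.prod_congr rfl fun p _ => rfl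
    obtain ⟨p, -, hp⟩ := (Prime.dvd_finset_prod_iff hq.prime _).mp (hd.trans hdvd)
    rw [hKi] at hp
    rw [(Nat.prime_dvd_prime_iff_eq hq (Nat.prime_of_mem_primeFactors p.2)).mp
      (hq.dvd_of_dvd_pow hp)]
    exact Nat.dvd_of_mem_primeFactors p.2
  have hco : Nat.Coprime (Nat.card N) (Nat.card H) := by
    refine Nat.coprime_of_dvd fun q hq h1 h2 => ?_
    exact hKc ⟨q, Nat.mem_primeFactors.mpr ⟨hq, h2, Nat.card_pos.ne'⟩⟩
      (h1.trans (card_dvd_of_le (iInf_le _ _)))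
  refine ⟨N, hNn, isComplement'_of_coprime ?_ hco⟩
  have h1 : N.index ∣ Nat.card H := by
    refine Nat.Coprime.dvd_of_dvd_mul_right ?_ (H.card_mul_index ▸ N.index_dvd_card)
    exact Nat.coprime_of_dvd fun q hq hd hd' =>
      hq.ne_one (Nat.eq_one_of_dvd_coprimes hHall (hprimes q hq hd) hd')
  have h2 : Nat.card H ∣ N.index := by
    refine hco.symm.dvd_of_dvd_mul_left ?_
    rw [N.card_mul_index]; exact card_subgroup_dvd_card H
  rw [← Nat.dvd_antisymm h1 h2, N.card_mul_index]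

/-- A weakly closed central subgroup: its normalizer controls fusion. -/
theorem control_of_weaklyClosed {p : ℕ} [Fact p.Prime] (P : Sylow p G) (Z : Subgroup G)
    (hZ : Z ≤ centralizer (P : Set G)) (hW : Cfsg.IsWeaklyClosed Z P) :
    ∀ x ∈ (P : Subgroup G), ∀ g : G, g * x * g⁻¹ ∈ (P : Subgroup G) →
      ∃ z ∈ normalizer (Z : Set G), z * x * z⁻¹ = g * x * g⁻¹ := by
  intro x hx g hg
  obtain ⟨y, hy⟩ : ∃ y, y = g * x * g⁻¹ := ⟨_, rfl⟩
  rw [← hy] at hg ⊢
  set C := centralizer ({y} : Set G) with hC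
  have hZC : Z ≤ C := fun z hz =>
    mem_centralizer_singleton_iff.mpr (mem_centralizer_iff.mp (hZ hz) y hg).symm
  set Z' := Z.map (MulAut.conj g).toMonoidHom with hZ'
  have hZ'C : Z' ≤ C := by
    rintro _ ⟨z, hz, rfl⟩
    refine mem_centralizer_singleton_iff.mpr ?_
    have h1 := mem_centralizer_iff.mp (hZ hz) x hx
    change g * z * g⁻¹ * y = y * (g * z * g⁻¹)
    rw [hy]
    calc g * z * g⁻¹ * (g * x * g⁻¹) = g * (z * x) * g⁻¹ := by group
      _ = g * x * g⁻¹ * (g * z * g⁻¹) := by rw [← h1]; group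
  have hp1 : IsPGroup p (Z.subgroupOf C) := (P.isPGroup'.to_le hW.1).comap_subtype
  have hp2 : IsPGroup p (Z'.subgroupOf C) := ((P.isPGroup'.to_le hW.1).map _).comap_subtype
  obtain ⟨R, hR⟩ := hp1.exists_le_sylow
  obtain ⟨R', hR'⟩ := hp2.exists_le_sylow
  obtain ⟨c, hc⟩ := MulAction.exists_smul_eq C R' R
  have hRp : IsPGroup p ((R : Subgroup C).map C.subtype) := R.isPGroup'.map _
  obtain ⟨S, hS⟩ := hRp.exists_le_sylow
  obtain ⟨u, hu⟩ := MulAction.exists_smul_eq G S P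
  have hmem : ∀ r : C, r ∈ (R : Subgroup C) → u * r * u⁻¹ ∈ (P : Subgroup G) := by
    intro r hr
    rw [← hu]
    exact ⟨r, hS ⟨r, hr, rfl⟩, by simp⟩
  have h1 : Z.map (MulAut.conj u).toMonoidHom ≤ (P : Subgroup G) := by
    rintro _ ⟨z, hz, rfl⟩
    exact hmem ⟨z, hZC hz⟩ (hR hz)
  have h2 : Z.map (MulAut.conj (u * (c : G) * g)).toMonoidHom ≤ (P : Subgroup G) := by
    rintro _ ⟨z, hz, rfl⟩
    have hzC : g * z * g⁻¹ ∈ C := hZ'C ⟨z, hz, rfl⟩
    have h3 : c * ⟨_, hzC⟩ * c⁻¹ ∈ (R : Subgroup C) := by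
      rw [← hc]
      exact ⟨⟨_, hzC⟩, hR' (show g * z * g⁻¹ ∈ Z' from ⟨z, hz, rfl⟩), by simp⟩
    have := hmem _ h3
    simpa [mul_assoc] using this
  have hnorm : ∀ v : G, Z.map (MulAut.conj v).toMonoidHom = Z → v ∈ normalizer (Z : Set G) := by
    intro v hv
    refine mem_normalizer_iff.mpr fun z => ⟨fun hz => ?_, fun hz => ?_⟩
    · exact hv ▸ ⟨z, hz, rfl⟩
    · rw [← hv] at hz
      obtain ⟨d, hd, e⟩ := hz
      exact (MulAut.conj v).injective e ▸ hd
  refine ⟨(c : G) * g, ?_, ?_⟩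
  · have := mul_mem (inv_mem (hnorm u (hW.2 u h1))) (hnorm _ (hW.2 _ h2))
    rwa [mul_assoc u, inv_mul_cancel_left] at this
  · calc (c : G) * g * x * ((c : G) * g)⁻¹ = (c : G) * y * (c : G)⁻¹ := by rw [hy]; group
      _ = y := by rw [mem_centralizer_singleton_iff.mp c.2, mul_inv_cancel_right]

end Cfsg.Agent.Transfer
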