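import Cfsg.Agent.Transfer.Abelian
import Cfsg.Agent.Transfer.Regular
import Cfsg.Agent.Invol.Basic

/-!
Involution classes of groups with a Klein four Sylow `2`-subgroup.
-/

set_option autoImplicit false

namespace Cfsg.Agent.Transfer

open Subgroup

variable {G : Type*} [Group G] [Finite G]

/-- The classes of involutions. -/
abbrev InvolClasses (G : Type*) [Group G] :=
  {C : ConjClasses G // ∃ t : G, orderOf t = 2 ∧ ConjClasses.mk t = C}

theorem isMulCommutative_klein (P : Sylow 2 G) (hP : IsKleinFour (P : Subgroup G)) :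
    IsMulCommutative ↥(P : Subgroup G) :=
  IsKleinFour.isMulCommutative

theorem klein_card_ne_one (P : Sylow 2 G) (hP : IsKleinFour (P : Subgroup G)) :
    Nat.card {x : ↥(P : Subgroup G) // x ≠ 1} = 3 := by
  classical
  haveI := Fintype.ofFinite ↥(P : Subgroup G)
  rw [Nat.card_eq_fintype_card, Fintype.card_subtype_compl, Fintype.card_subtype_eq,
    ← Nat.card_eq_fintype_card, hP.card_four]

theorem klein_orderOf (P : Sylow 2 G) (hP : IsKleinFour (P : Subgroup G)) {x : G}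
    (hx : x ∈ (P : Subgroup G)) (h1 : x ≠ 1) : orderOf x = 2 := by
  refine orderOf_eq_prime ?_ h1
  have h := IsKleinFour.mul_self (⟨x, hx⟩ : ↥(P : Subgroup G))
  simpa [sq] using congrArg Subtype.val h

/-- The map from the nonidentity elements of `P` to the classes of involutions. -/
def kleinClass (P : Sylow 2 G) (hP : IsKleinFour (P : Subgroup G))
    (x : {x : ↥(P : Subgroup G) // x ≠ 1}) : InvolClasses G :=
  ⟨ConjClasses.mk ((x : ↥(P : Subgroup G)) : G), _,
    klein_orderOf P hP x.1.2 (fun e => x.2 (Subtype.ext e)), rfl⟩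

theorem kleinClass_surjective (P : Sylow 2 G) (hP : IsKleinFour (P : Subgroup G)) :
    Function.Surjective (kleinClass P hP) := by
  haveI : Fact (Nat.Prime 2) := ⟨Nat.prime_two⟩
  rintro ⟨C, t, ht, rfl⟩
  obtain ⟨Q, hQ⟩ := (Invol.isPGroup_zpowers ht).exists_le_sylow
  obtain ⟨a, ha⟩ := MulAction.exists_smul_eq G Q P
  have hmem : a * t * a⁻¹ ∈ (P : Subgroup G) := by
    rw [← ha]; exact ⟨t, hQ (mem_zpowers t), by simp⟩
  refine ⟨⟨⟨_, hmem⟩, fun e => Invol.ne_one ht ?_⟩, Subtype.ext ?_⟩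
  · simpa using congrArg Subtype.val e
  · exact ConjClasses.mk_eq_mk_iff_isConj.mpr (isConj_iff.mpr ⟨a, rfl⟩).symm

/-- Three classes if the normalizer centralizes `P`. -/
theorem klein_three (P : Sylow 2 G) (hP : IsKleinFour (P : Subgroup G))
    (h : normalizer ((P : Subgroup G) : Set G) ≤ centralizer ((P : Subgroup G) : Set G)) :
    Nat.card (InvolClasses G) = 3 := by
  haveI : Fact (Nat.Prime 2) := ⟨Nat.prime_two⟩
  rw [← klein_card_ne_one P hP]
  refine (Nat.card_congr (Equiv.ofBijective _ ⟨?_, kleinClass_surjective P hP⟩)).symm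
  intro x y hxy
  obtain ⟨g, hg⟩ := isConj_iff.mp (ConjClasses.mk_eq_mk_iff_isConj.mp (congrArg Subtype.val hxy))
  obtain ⟨z, hz, hze⟩ := control_of_abelian P (isMulCommutative_klein P hP) _ x.1.2 g (hg ▸ y.1.2)
  refine Subtype.ext (Subtype.ext ?_)
  rw [← hg, ← hze, ← mem_centralizer_iff.mp (h hz) _ x.1.2, mul_inv_cancel_right]

/-- One class otherwise. -/
theorem klein_one (P : Sylow 2 G) (hP : IsKleinFour (P : Subgroup G))
    (h : ¬ normalizer ((P : Subgroup G) : Set G) ≤ centralizer ((P : Subgroup G) : Set G)) :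
    Nat.card (InvolClasses G) = 1 := by
  classical
  haveI : Fact (Nat.Prime 2) := ⟨Nat.prime_two⟩
  obtain ⟨g, hg, hgc⟩ := SetLike.not_le_iff_exists.mp h
  obtain ⟨a, b, ha, hb, hab, ⟨k, hk⟩, hbc⟩ := exists_parts (p := 2) g
  have hzN : zpowers g ≤ normalizer ((P : Subgroup G) : Set G) := zpowers_le.mpr hg
  have haP : a ∈ (P : Subgroup G) := by
    let A : Subgroup G := zpowers a
    have hA : IsPGroup 2 A := by
      obtain ⟨l, -, hl⟩ := (Nat.dvd_prime_pow Nat.prime_two).mp (orderOf_dvd_of_pow_eq_one hk)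
      exact IsPGroup.of_card ((Nat.card_zpowers a).trans hl)
    have hsup : IsPGroup 2 ↥(A ⊔ (P : Subgroup G)) :=
      hA.to_sup_of_normal_right' P.isPGroup' (zpowers_le.mpr (hzN ha))
    rw [← P.is_maximal' hsup le_sup_right]
    exact mem_sup_left (mem_zpowers a)
  have hbN := hzN hb
  haveI := isMulCommutative_klein P hP
  obtain ⟨t, ht, htb⟩ : ∃ t ∈ (P : Subgroup G), b * t * b⁻¹ ≠ t := by
    by_contra hall
    push Not at hall
    refine hgc (hab ▸ mul_mem (le_centralizer _ haP) (mem_centralizer_iff.mpr fun t ht => ?_))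
    exact (mul_inv_eq_iff_eq_mul.mp (hall t ht)).symm
  have ht1 : t ≠ 1 := by rintro rfl; simp at htb
  set t₁ := b * t * b⁻¹ with ht₁
  set t₂ := b * t₁ * b⁻¹ with ht₂
  have h1P : t₁ ∈ (P : Subgroup G) := (mem_normalizer_iff.mp hbN t).mp ht
  have h2P : t₂ ∈ (P : Subgroup G) := (mem_normalizer_iff.mp hbN t₁).mp h1P
  have h20 : t₂ ≠ t := by
    intro e
    have hc : Commute (b ^ 2) t := by
      refine mul_inv_eq_iff_eq_mul.mp ?_
      calc b ^ 2 * t * (b ^ 2)⁻¹ = b * (b * t * b⁻¹) * b⁻¹ := by rw [sq]; simp only [mul_inv_rev, mul_assoc]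
        _ = t := e
    obtain ⟨m, hm⟩ := exists_pow_eq_self_of_coprime (n := 2) (x := b) hbc.symm
    refine htb ?_
    rw [ht₁, ← hm, (hc.pow_left m).eq, mul_inv_cancel_right]
  have h21 : t₂ ≠ t₁ := fun e => htb (by
    have e2 : b * t₁ * b⁻¹ = b * t * b⁻¹ := e
    exact mul_left_cancel (mul_right_cancel e2))
  let f : Fin 3 → {x : ↥(P : Subgroup G) // x ≠ 1} :=
    ![⟨⟨t, ht⟩, fun e => ht1 (congrArg Subtype.val e)⟩,
      ⟨⟨t₁, h1P⟩, fun e => ht1 (by simpa [ht₁] using congrArg Subtype.val e)⟩,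
      ⟨⟨t₂, h2P⟩, fun e => ht1 (by simpa [ht₂, ht₁] using congrArg Subtype.val e)⟩]
  have hf : Function.Surjective f := by
    refine (Function.Injective.bijective_of_nat_card_le ?_ (by
      rw [klein_card_ne_one P hP, Nat.card_fin])).2
    have hv : Function.Injective (fun i => ((f i).1 : G)) := by
      intro i j
      fin_cases i <;> fin_cases j <;>
        simp [f, Ne.symm htb, htb, h20, Ne.symm h20, h21, Ne.symm h21]
    exact fun i j e => hv (congrArg (fun x => (x.1 : G)) e)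
  refine Nat.card_eq_one_iff_exists.mpr ⟨kleinClass P hP (f 0), fun C => ?_⟩
  obtain ⟨x, rfl⟩ := kleinClass_surjective P hP C
  obtain ⟨i, rfl⟩ := hf x
  refine Subtype.ext (ConjClasses.mk_eq_mk_iff_isConj.mpr (IsConj.symm (isConj_iff.mpr ?_)))
  fin_cases i
  · exact ⟨1, by simp⟩
  · exact ⟨b, rfl⟩
  · exact ⟨b * b, by simp [f, ht₂, ht₁, mul_assoc]⟩

/-- A complement forces the normalizer to centralize an abelian `P`. -/
theorem normalizer_le_of_complement {p : ℕ} (P : Sylow p G) (hP : IsMulCommutative ↥(P : Subgroup G))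
    (N : Subgroup G) (hN : N.Normal) (hc : N.IsComplement' (P : Subgroup G)) :
    normalizer ((P : Subgroup G) : Set G) ≤ centralizer ((P : Subgroup G) : Set G) := by
  intro g hg
  obtain ⟨⟨⟨n, hn⟩, ⟨u, hu⟩⟩, e⟩ := hc.2 g
  refine mem_centralizer_iff.mpr fun x hx => ?_
  haveI := hP
  have hnN : n ∈ normalizer ((P : Subgroup G) : Set G) := by
    have e' : n = g * u⁻¹ := by rw [← e]; simp
    rw [e']; exact mul_mem hg (inv_mem (le_normalizer hu))
  have h1 : n * x * n⁻¹ * x⁻¹ ∈ N ⊓ (P : Subgroup G) := by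
    refine ⟨?_, Subgroup.mul_mem _ ((mem_normalizer_iff.mp hnN x).mp hx) (Subgroup.inv_mem _ hx)⟩
    rw [show n * x * n⁻¹ * x⁻¹ = n * (x * n⁻¹ * x⁻¹) by group]
    exact mul_mem hn (hN.conj_mem _ (inv_mem hn) x)
  rw [hc.disjoint.eq_bot, mem_bot, mul_inv_eq_one, mul_inv_eq_iff_eq_mul] at h1
  have hux : u * x = x * u := congrArg Subtype.val (mul_comm' (⟨u, hu⟩ : ↥(P : Subgroup G)) ⟨x, hx⟩)
  rw [← e]
  change x * (n * u) = n * u * x
  rw [← mul_assoc, ← h1, mul_assoc, ← hux, ← mul_assoc]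

end Cfsg.Agent.Transfer
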